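import Cfsg.Agent.Lib.CosetCert.D.OnJ1.Dg.Tab
import Cfsg.Agent.Lib.CosetCert.D.OnJ1.Dg.C0
import Cfsg.Agent.Lib.CosetCert.D.OnJ1.Dg.C1
import Cfsg.Agent.Lib.CosetCert.D.OnJ1.Dg.R0
import Cfsg.Agent.Lib.CosetCert.D.OnJ1.Dg.R1

namespace Cfsg.Agent.Lib.CosetCert.D.OnJ1.Dg.Ok

open Cfsg.Agent.Lib.CosetCert Cfsg.Agent.Lib.TC.Core Cfsg.Agent.Lib.TC.Enc Cfsg.Agent.Lib.TC.Pres Cfsg.Agent.Lib.TC.Perm Cfsg.Agent.Lib.TC.Main

set_option maxRecDepth 100000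

open Cfsg.Agent.Lib.CosetCert.D.OnJ1.Dg.Tab Cfsg.Agent.Lib.CosetCert.D.OnJ1.Tbl

theorem hrelk : ∀ l ∈ rels, ∀ z ∈ l, z < L0.k := by decide +kernel

theorem hrelR : allR (guard 1540 (wordFixes F0 rels)) 11 0 = true :=
  (allR_node (d := 10) (lo := 0) (mid := 1024) rfl Cfsg.Agent.Lib.CosetCert.D.OnJ1.Dg.R0.ok Cfsg.Agent.Lib.CosetCert.D.OnJ1.Dg.R1.ok)

theorem allC0 : cert.chkRange 0 5000 = true := Cfsg.Agent.Lib.CosetCert.D.OnJ1.Dg.C0.ok
theorem allF0 : cert.chkFinal 0 5000 = true := Cfsg.Agent.Lib.CosetCert.D.OnJ1.Dg.C0.fin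
theorem allC1 : cert.chkRange 0 9869 = true := Cert.chkRange_join (lo := 0) (a := 5000) (b := 4869) _ allC0 Cfsg.Agent.Lib.CosetCert.D.OnJ1.Dg.C1.ok
theorem allF1 : cert.chkFinal 0 9869 = true := Cert.chkFinal_join (lo := 0) (a := 5000) (b := 4869) _ allF0 Cfsg.Agent.Lib.CosetCert.D.OnJ1.Dg.C1.fin

theorem h0 : cert.eLvl (cert.par (cert.find cert.MAX cert.D 0)) = cert.MAX := by decide +kernel

theorem hcount : cert.countRoots cert.N = 9240 := by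
  rw [countRoots_eq_acc]
  decide +kernel

theorem hchecked : Checked cert where
  hN := by decide
  hC := allC1
  hF := allF1
  h0 := h0

theorem h1 : chkRelRots cert inv0 rels witT.get = true := by decide +kernel

theorem h2 : chkSubRots cert [[0,1,0,2]] = true := by decide +kernel

theorem hrelL : ∀ l ∈ rels, ev L0.val l = 1 := fun _ hl =>
  L0.ev_one_of_wordFixes hrelk (all_of_allR (by decide) hrelR) hl

theorem huk : ∀ z ∈ ([0,1,0,2] : List ℕ), z < L0.k := by decide +kernel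

theorem hu : (List.replicate 19 ([0,1,0,2] : List ℕ)).flatten ∈ rels := by decide +kernel

end Cfsg.Agent.Lib.CosetCert.D.OnJ1.Dg.Ok
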